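import Mathlib
import Cfsg.Agent.Lib.Helper24.BG.S1431Defs
import Cfsg.Agent.Lib.Helper67.BG.HallUtil
import Cfsg.Agent.Lib.Helper90.SylowCount

/-!
# Package A3 of the S1431 project (helper24): invariant Sylow subgroups under coprime action
-/

set_option autoImplicit false

namespace Cfsg.Agent.Lib.Helper21.BG

open Cfsg Cfsg.Agent.Lib.Helper46

universe u

theorem card_mul_relIndex_le {G : Type u} [Group G] {A B : Subgroup G} (h : A ≤ B) :
    Nat.card A * A.relIndex B = Nat.card B := by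
  have h1 := Subgroup.relIndex_mul_relIndex ⊥ A B bot_le h
  rwa [Subgroup.relIndex_bot_left, Subgroup.relIndex_bot_left] at h1

/-- **Package A3** of the S1431 project: `K` normalizes `H`, coprime orders, `H ⊔ K` solvable,
`P ≤ H` a `K`-invariant `p`-subgroup: some `K`-invariant Sylow `p`-subgroup of `H` contains `P`. -/
theorem lemInvSylow : Cfsg.Agent.Lib.Helper24.BG31.LemInvSylow.{u} := by
  intro G _ _ p _ H K P hKH hcop hpK hsol hP hPH hKP
  have hp : p.Prime := Fact.out
  have hPK : P ⊔ K ≤ H ⊔ K := sup_le (hPH.trans le_sup_left) le_sup_right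
  have hcardPK : Nat.card (K ⊔ P : Subgroup G) * Nat.card (K ⊓ P : Subgroup G)
      = Nat.card K * Nat.card P :=
    Cfsg.Agent.Lib.Helper90.card_sup_mul_card_inf_of_le_normalizer hKP
  have hXπ : ∀ q : ℕ, q.Prime → q ∣ Nat.card (P ⊔ K : Subgroup G) →
      q ∈ ({q | q = p ∨ q ∣ Nat.card K} : Set ℕ) := by
    intro q hq hdvd
    have h1 : q ∣ Nat.card K * Nat.card P := by
      rw [← hcardPK, sup_comm]
      exact Dvd.dvd.mul_right hdvd _
    rcases (Nat.Prime.dvd_mul hq).mp h1 with h | h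
    · exact Or.inr h
    · left
      obtain ⟨j, hj⟩ := IsPGroup.iff_card.mp hP
      rw [hj] at h
      exact (Nat.prime_dvd_prime_iff_eq hq hp).mp (hq.dvd_of_dvd_pow h)
  obtain ⟨T, hT, hXT⟩ := Cfsg.Agent.Lib.Helper67.BG.exists_piHallOf_ge
    ({q | q = p ∨ q ∣ Nat.card K} : Set ℕ) (H ⊔ K) hsol (P ⊔ K) hPK hXπ
  obtain ⟨hTL, hTπ, hTidx⟩ := hT
  have hPT : P ≤ T := le_sup_left.trans hXT
  have hKT : K ≤ T := le_sup_right.trans hXT
  refine ⟨T ⊓ H, ⟨inf_le_right, ?_⟩, le_inf hPT hPH, ?_⟩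
  · -- the order of `T ⊓ H`
    have hTN : T ≤ Subgroup.normalizer (H : Set G) :=
      hTL.trans (sup_le Subgroup.le_normalizer hKH)
    have hcard : Nat.card (T ⊔ H : Subgroup G) * Nat.card (T ⊓ H : Subgroup G)
        = Nat.card T * Nat.card H :=
      Cfsg.Agent.Lib.Helper90.card_sup_mul_card_inf_of_le_normalizer hTN
    have hTHL : T ⊔ H ≤ H ⊔ K := sup_le hTL le_sup_left
    have h1 : T.relIndex (T ⊔ H) * (T ⊔ H).relIndex (H ⊔ K) = T.relIndex (H ⊔ K) :=
      Subgroup.relIndex_mul_relIndex T (T ⊔ H) (H ⊔ K) le_sup_left hTHL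
    have hpT : ¬ p ∣ T.relIndex (T ⊔ H) := fun h =>
      hTidx p hp (Or.inl rfl) (h1 ▸ Dvd.dvd.mul_right h _)
    have e1 : Nat.card T * T.relIndex (T ⊔ H) = Nat.card (T ⊔ H : Subgroup G) :=
      card_mul_relIndex_le le_sup_left
    have e2 : Nat.card (T ⊓ H : Subgroup G) * (T ⊓ H).relIndex H = Nat.card H :=
      card_mul_relIndex_le inf_le_right
    have e3 : (T ⊓ H).relIndex H = T.relIndex (T ⊔ H) := by
      have hTpos : 0 < Nat.card T := Nat.card_pos
      have hSpos : 0 < Nat.card (T ⊓ H : Subgroup G) := Nat.card_pos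
      have h2 : Nat.card T * Nat.card (T ⊓ H : Subgroup G) * (T ⊓ H).relIndex H
          = Nat.card T * Nat.card (T ⊓ H : Subgroup G) * T.relIndex (T ⊔ H) := by
        calc Nat.card T * Nat.card (T ⊓ H : Subgroup G) * (T ⊓ H).relIndex H
            = Nat.card T * (Nat.card (T ⊓ H : Subgroup G) * (T ⊓ H).relIndex H) := by ring
          _ = Nat.card T * Nat.card H := by rw [e2]
          _ = Nat.card (T ⊔ H : Subgroup G) * Nat.card (T ⊓ H : Subgroup G) := hcard.symm
          _ = (Nat.card T * T.relIndex (T ⊔ H)) * Nat.card (T ⊓ H : Subgroup G) := by rw [e1]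
          _ = Nat.card T * Nat.card (T ⊓ H : Subgroup G) * T.relIndex (T ⊔ H) := by ring
      exact Nat.eq_of_mul_eq_mul_left (Nat.mul_pos hTpos hSpos) h2
    have hpS : ¬ p ∣ (T ⊓ H).relIndex H := by rw [e3]; exact hpT
    have hSprime : ∀ q : ℕ, q.Prime → q ∣ Nat.card (T ⊓ H : Subgroup G) → q = p := by
      intro q hq hdvd
      have hqT : q ∣ Nat.card T := hdvd.trans (Subgroup.card_dvd_of_le inf_le_left)
      have hqH : q ∣ Nat.card H := hdvd.trans (Subgroup.card_dvd_of_le inf_le_right)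
      rcases hTπ q hq hqT with h | h
      · exact h
      · have h3 := Nat.dvd_gcd hqH h
        rw [Nat.Coprime.gcd_eq_one hcop] at h3
        exact absurd (Nat.dvd_one.mp h3) hq.ne_one
    obtain ⟨j, hj⟩ : ∃ j, Nat.card (T ⊓ H : Subgroup G) = p ^ j :=
      ⟨_, Nat.eq_prime_pow_of_unique_prime_dvd Nat.card_pos.ne'
        (fun {d} hd hdvd => hSprime d hd hdvd)⟩
    have hidx0 : (T ⊓ H).relIndex H ≠ 0 := by
      intro h0
      rw [h0, mul_zero] at e2
      exact Nat.card_pos.ne' e2.symm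
    rw [hj, ← e2, hj, Nat.factorization_mul (pow_ne_zero _ hp.ne_zero) hidx0, Finsupp.add_apply,
      hp.factorization_pow, Finsupp.single_eq_same, Nat.factorization_eq_zero_of_not_dvd hpS,
      add_zero]
  · intro k hk
    have h1 : k ∈ Subgroup.normalizer (T : Set G) := Subgroup.le_normalizer (hKT hk)
    have h2 := hKH hk
    have h1' := Subgroup.mem_normalizer_iff.mp h1
    have h2' := Subgroup.mem_normalizer_iff.mp h2
    apply Subgroup.mem_normalizer_iff.mpr
    intro x
    constructor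
    · intro hx
      exact ⟨(h1' x).mp hx.1, (h2' x).mp hx.2⟩
    · intro hx
      exact ⟨(h1' x).mpr hx.1, (h2' x).mpr hx.2⟩

end Cfsg.Agent.Lib.Helper21.BG
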